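import Mathlib
import Cfsg.Agent.Lib.FPF.Basic

/-!
# Groups of odd order acting transitively on the non-zero vectors: abelian normal subgroups

`D` acts faithfully on the finite abelian group `E`, transitively on `E ∖ {0}`, and has odd order.

* `add_self_eq_zero_of_odd`: `E` has exponent 2.
* `fpf_of_abelian_normal`: a non-identity element of an abelian normal subgroup fixes no
  non-zero vector.
* `isCyclic_of_abelian_normal`: an abelian normal subgroup is cyclic.
-/

set_option autoImplicit false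
set_option linter.style.haveILetI false
set_option linter.unusedSectionVars false

namespace Cfsg.Agent.Lib.TransLin.Basic

open scoped Pointwise

variable {D E : Type*} [Group D] [AddCommGroup E] [DistribMulAction D E]

/-- `E` is 2-torsion: some `d` sends `a` to `-a`, and `d` has odd order. -/
theorem add_self_eq_zero_of_odd [Finite D] (hodd : Odd (Nat.card D))
    (htrans : ∀ a b : E, a ≠ 0 → b ≠ 0 → ∃ d : D, d • a = b) (a : E) : a + a = 0 := by
  by_cases ha : a = 0
  · simp [ha]
  have hna : -a ≠ 0 := neg_ne_zero.mpr ha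
  obtain ⟨d, hd⟩ := htrans a (-a) ha hna
  have h1 : ∀ k : ℕ, d ^ k • a = (-1 : ℤ) ^ k • a := by
    intro k
    induction k with
    | zero => simp
    | succ k ih =>
      rw [pow_succ, mul_smul, hd, smul_neg, ih, pow_succ]
      simp
  have h2 := h1 (Nat.card D)
  rw [pow_card_eq_one', one_smul, hodd.neg_one_pow] at h2
  have h3 : a = -a := by simpa using h2
  have h4 : a + a = -a + a := by rw [← h3]
  rwa [neg_add_cancel] at h4

/-- The fixed points of a set of elements. -/
def fixA (S : Set D) : AddSubgroup E where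
  carrier := {e | ∀ s ∈ S, s • e = e}
  zero_mem' := fun s _ => smul_zero s
  add_mem' := fun {a b} ha hb s hs => by rw [smul_add, ha s hs, hb s hs]
  neg_mem' := fun {a} ha s hs => by rw [smul_neg, ha s hs]

theorem mem_fixA {S : Set D} {e : E} : e ∈ fixA (E := E) S ↔ ∀ s ∈ S, s • e = e := Iff.rfl

/-- The fixed points of a conjugate set are the translates. -/
theorem smul_fixA (g : D) (S : Set D) :
    g • fixA (E := E) S = fixA (E := E) ((fun s => g * s * g⁻¹) '' S) := by
  ext e
  rw [AddSubgroup.mem_pointwise_smul_iff_inv_smul_mem, mem_fixA, mem_fixA]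
  constructor
  · rintro h _ ⟨s, hs, rfl⟩
    have := h s hs
    calc (g * s * g⁻¹) • e = g • (s • (g⁻¹ • e)) := by simp [mul_smul]
      _ = g • (g⁻¹ • e) := by rw [this]
      _ = e := by simp
  · intro h s hs
    have := h _ ⟨s, hs, rfl⟩
    calc s • (g⁻¹ • e) = g⁻¹ • ((g * s * g⁻¹) • e) := by simp [mul_smul]
      _ = g⁻¹ • e := by rw [this]

theorem exists_mem_ne_zero_of_ne_bot {U : AddSubgroup E} (h : U ≠ ⊥) : ∃ v ∈ U, v ≠ 0 := by
  by_contra hc
  push Not at hc
  exact h ((AddSubgroup.eq_bot_iff_forall U).2 hc)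

/-- The family of non-zero fixed-point subgroups of subsets of `B`. -/
def IsFixFam (B : Subgroup D) (U : AddSubgroup E) : Prop :=
  U ≠ ⊥ ∧ ∃ S : Set D, S ⊆ B ∧ U = fixA S

theorem IsFixFam.smul {B : Subgroup D} (hB : B.Normal) {U : AddSubgroup E} (hU : IsFixFam B U)
    (g : D) : IsFixFam B (g • U) := by
  obtain ⟨h0, S, hS, rfl⟩ := hU
  refine ⟨?_, _, ?_, smul_fixA g S⟩
  · intro h
    apply h0
    rw [AddSubgroup.eq_bot_iff_forall] at h ⊢
    intro x hx
    have := h (g • x) (AddSubgroup.smul_mem_pointwise_smul x g _ hx)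
    exact (smul_eq_zero_iff_eq g).1 this
  · rintro _ ⟨s, hs, rfl⟩
    exact hB.conj_mem s (hS hs) g

/-- Translates of minimal members are minimal. -/
theorem minimal_smul {B : Subgroup D} (hB : B.Normal) {U : AddSubgroup E}
    (hU : Minimal (IsFixFam B) U) (g : D) : Minimal (IsFixFam B) (g • U) := by
  refine ⟨hU.1.smul hB g, ?_⟩
  intro V hV hle
  have h1 : g⁻¹ • V ≤ U := by
    intro x hx
    rw [AddSubgroup.mem_pointwise_smul_iff_inv_smul_mem, inv_inv] at hx
    have := hle hx
    rw [AddSubgroup.mem_pointwise_smul_iff_inv_smul_mem] at this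
    simpa using this
  have h2 : U ≤ g⁻¹ • V := hU.2 (hV.smul hB g⁻¹) h1
  intro x hx
  rw [AddSubgroup.mem_pointwise_smul_iff_inv_smul_mem] at hx
  have := h2 hx
  rw [AddSubgroup.mem_pointwise_smul_iff_inv_smul_mem, inv_inv] at this
  simpa using this

/-- Two minimal members with a common non-zero vector coincide. -/
theorem minimal_eq_of_mem {B : Subgroup D} {U V : AddSubgroup E} (hU : Minimal (IsFixFam B) U)
    (hV : Minimal (IsFixFam B) V) {x : E} (hx : x ≠ 0) (hxU : x ∈ U) (hxV : x ∈ V) : U = V := by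
  obtain ⟨-, S, hS, rfl⟩ := hU.1
  have hUV : ∀ {U' V' : AddSubgroup E}, Minimal (IsFixFam B) U' → Minimal (IsFixFam B) V' →
      x ∈ U' → x ∈ V' → U' ≤ V' := by
    intro U' V' hU' hV' hxU' hxV'
    obtain ⟨-, S', hS', rfl⟩ := hU'.1
    obtain ⟨-, T', hT', rfl⟩ := hV'.1
    have hW : IsFixFam B (fixA (E := E) (S' ∪ T')) := by
      refine ⟨?_, _, Set.union_subset hS' hT', rfl⟩
      intro h
      apply hx
      have : x ∈ fixA (E := E) (S' ∪ T') := by
        intro s hs
        rcases hs with hs | hs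
        · exact hxU' s hs
        · exact hxV' s hs
      rw [h] at this
      simpa using this
    have h1 : fixA (E := E) (S' ∪ T') ≤ fixA S' := fun y hy s hs => hy s (Or.inl hs)
    have h2 := hU'.2 hW h1
    exact fun y hy s hs => h2 hy s (Or.inr hs)
  obtain ⟨-, T, hT, rfl⟩ := hV.1
  exact le_antisymm (hUV hU hV hxU hxV) (hUV hV hU hxV hxU)

/-- Elements of an abelian `B` preserve `fixA S` for `S ⊆ B`. -/
theorem smul_mem_fixA {B : Subgroup D} (hab : ∀ x ∈ B, ∀ y ∈ B, x * y = y * x) {S : Set D}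
    (hS : S ⊆ B) {h : D} (hh : h ∈ B) {e : E} (he : e ∈ fixA (E := E) S) :
    h • e ∈ fixA (E := E) S := by
  intro s hs
  rw [← mul_smul, hab s (hS hs) h hh, mul_smul, he s hs]

/-- The key step: a minimal member is `D`-invariant. -/
theorem smul_eq_of_minimal
    (htrans : ∀ a b : E, a ≠ 0 → b ≠ 0 → ∃ d : D, d • a = b)
    {B : Subgroup D} (hB : B.Normal) (hab : ∀ x ∈ B, ∀ y ∈ B, x * y = y * x)
    {U : AddSubgroup E} (hU : Minimal (IsFixFam B) U) (d : D) : d • U = U := by
  by_contra hne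
  have hdU := minimal_smul hB hU d
  -- disjointness
  have hdisj : ∀ x, x ∈ U → x ∈ d • U → x = 0 := by
    intro x hx hx'
    by_contra hx0
    exact hne (minimal_eq_of_mem hdU hU hx0 hx' hx)
  obtain ⟨v, hvU, hv0⟩ := exists_mem_ne_zero_of_ne_bot hU.1.1
  obtain ⟨w, hwU, hw0⟩ := exists_mem_ne_zero_of_ne_bot hdU.1.1
  have hvw : v + w ≠ 0 := by
    intro h
    have hw' : w = -v := by
      rw [eq_neg_iff_add_eq_zero, add_comm]; exact h
    exact hw0 (hdisj w (hw' ▸ U.neg_mem hvU) hwU)
  obtain ⟨g, hg⟩ := htrans v (v + w) hv0 hvw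
  have hgU := minimal_smul hB hU g
  have hmem : v + w ∈ g • U := by
    rw [← hg]; exact AddSubgroup.smul_mem_pointwise_smul v g _ hvU
  obtain ⟨-, S₁, hS₁, hS₁e⟩ := hU.1
  obtain ⟨-, S₂, hS₂, hS₂e⟩ := hdU.1
  obtain ⟨-, S₃, hS₃, hS₃e⟩ := hgU.1
  have hfix : ∀ h ∈ S₃, h • v = v ∧ h • w = w := by
    intro h hh
    have hvw' : h • (v + w) = v + w := by
      have : v + w ∈ fixA (E := E) S₃ := hS₃e ▸ hmem
      exact this h hh
    rw [smul_add] at hvw'
    have h1 : h • v ∈ U := by
      rw [hS₁e] at hvU ⊢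
      exact smul_mem_fixA hab hS₁ (hS₃ hh) hvU
    have h2 : h • w ∈ d • U := by
      rw [hS₂e] at hwU ⊢
      exact smul_mem_fixA hab hS₂ (hS₃ hh) hwU
    have h3 : h • v - v = w - h • w := by
      rw [sub_eq_sub_iff_add_eq_add, hvw', add_comm]
    have h4 : h • v - v = 0 := by
      apply hdisj
      · exact U.sub_mem h1 hvU
      · rw [h3]; exact (d • U).sub_mem hwU h2
    have h5 : h • v = v := sub_eq_zero.1 h4
    refine ⟨h5, ?_⟩
    rw [h5] at hvw'
    exact add_left_cancel hvw'
  have hv' : v ∈ g • U := by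
    rw [hS₃e]; exact fun h hh => (hfix h hh).1
  have hw' : w ∈ g • U := by
    rw [hS₃e]; exact fun h hh => (hfix h hh).2
  have e1 := minimal_eq_of_mem hU hgU hv0 hvU hv'
  have e2 := minimal_eq_of_mem hdU hgU hw0 hwU hw'
  exact hne (e2.trans e1.symm)

/-- **Lemma 1.** Non-identity elements of an abelian normal subgroup are fixed-point-free. -/
theorem fpf_of_abelian_normal [Finite E] [FaithfulSMul D E]
    (htrans : ∀ a b : E, a ≠ 0 → b ≠ 0 → ∃ d : D, d • a = b)
    {B : Subgroup D} (hB : B.Normal) (hab : ∀ x ∈ B, ∀ y ∈ B, x * y = y * x)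
    {b : D} (hb : b ∈ B) (hb1 : b ≠ 1) (a : E) (ha : b • a = a) : a = 0 := by
  by_contra ha0
  have hfam : IsFixFam B (fixA (E := E) {b}) := by
    refine ⟨?_, {b}, by simpa using hb, rfl⟩
    intro h
    have : a ∈ fixA (E := E) {b} := by
      rintro s rfl; exact ha
    rw [h] at this
    exact ha0 (by simpa using this)
  haveI : Finite (AddSubgroup E) :=
    Finite.of_injective (fun U : AddSubgroup E => (U : Set E)) SetLike.coe_injective
  obtain ⟨U, hUle, hU⟩ := (Set.toFinite (IsFixFam (E := E) B)).exists_le_minimal hfam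
  -- `U` is everything
  have hUtop : U = ⊤ := by
    obtain ⟨v, hvU, hv0⟩ := exists_mem_ne_zero_of_ne_bot hU.1.1
    rw [eq_top_iff]
    intro e _
    by_cases he : e = 0
    · rw [he]; exact U.zero_mem
    obtain ⟨d, hd⟩ := htrans v e hv0 he
    have := AddSubgroup.smul_mem_pointwise_smul v d U hvU
    rw [smul_eq_of_minimal htrans hB hab hU d, hd] at this
    exact this
  apply hb1
  apply FaithfulSMul.eq_of_smul_eq_smul (α := E)
  intro e
  have : e ∈ U := by rw [hUtop]; trivial
  have h2 := hUle this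
  rw [one_smul]
  exact h2 b rfl

/-- **Lemma 2.** An abelian normal subgroup is cyclic. -/
theorem isCyclic_of_abelian_normal [Finite D] [Finite E] [Nontrivial E] [FaithfulSMul D E]
    (htrans : ∀ a b : E, a ≠ 0 → b ≠ 0 → ∃ d : D, d • a = b)
    {B : Subgroup D} (hB : B.Normal) (hab : ∀ x ∈ B, ∀ y ∈ B, x * y = y * x) : IsCyclic B := by
  let φ : B →* AddMonoid.End E := (DistribMulAction.toAddMonoidEnd D E).comp B.subtype
  have hφ : Cfsg.Agent.Lib.FPF.Basic.IsFPF φ := by
    intro b hb1 w hw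
    exact fpf_of_abelian_normal htrans hB hab b.2 (fun h => hb1 (Subtype.ext h)) w hw
  exact Cfsg.Agent.Lib.FPF.Basic.isCyclic_of_comm hφ fun a b => Subtype.ext (hab _ a.2 _ b.2)

end Cfsg.Agent.Lib.TransLin.Basic
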