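import Cfsg.Agent.Lib.TransLin.Extra

/-!
# The covering argument

If `D` is transitive on the non-zero vectors, `U` is normal in `D` and `y ∈ U` has prime order `s`
and fixes a non-zero vector, then every non-zero vector is fixed by at least `s - 1` elements of
`U` whose fixed space is no larger than that of `y`. Together with the bound in `Extra` this
shows that a normal subgroup of `D` of extraspecial type must be abelian.
-/

set_option autoImplicit false
set_option linter.style.haveILetI false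
set_option linter.unusedSectionVars false

namespace Cfsg.Agent.Lib.TransLin.Cover

open Cfsg.Agent.Lib.TransLin.Basic Cfsg.Agent.Lib.TransLin.Proj Cfsg.Agent.Lib.TransLin.Extra
open scoped commutatorElement Pointwise

variable {D E : Type*} [Group D] [AddCommGroup E] [DistribMulAction D E]

theorem pow_smul_of_fix {y : D} {e : E} (h : y • e = e) (k : ℕ) : y ^ k • e = e := by
  induction k with
  | zero => simp
  | succ k ih => rw [pow_succ, mul_smul, h, ih]

theorem fixA_pow_eq {s : ℕ} (hs : s.Prime) {y : D} (hys : y ^ s = 1) {i : ℕ} (hi0 : 0 < i)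
    (his : i < s) : fixA (E := E) {y ^ i} = fixA {y} := by
  ext e
  simp only [mem_fixA, Set.mem_singleton_iff, forall_eq]
  constructor
  · intro h
    have hco : Nat.Coprime i s := ((Nat.Prime.coprime_iff_not_dvd hs).2 (fun hd =>
      absurd (Nat.le_of_dvd hi0 hd) (by omega))).symm
    obtain ⟨k, -, hk⟩ := Nat.exists_mul_mod_eq_one_of_coprime hco hs.one_lt
    have h1 : y = (y ^ i) ^ k := by
      rw [← pow_mul, pow_eq_pow_mod (i * k) hys, hk, pow_one]
    rw [h1]
    exact pow_smul_of_fix h k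
  · intro h
    exact pow_smul_of_fix h i

theorem card_fixA_conj [Finite E] (g u : D) :
    Nat.card (fixA (E := E) {g * u * g⁻¹}) = Nat.card (fixA (E := E) {u}) := by
  have h := smul_fixA (E := E) g {u}
  rw [Set.image_singleton] at h
  rw [← h]
  refine Nat.card_congr
    { toFun := fun v => ⟨g⁻¹ • (v : E), ?_⟩
      invFun := fun v => ⟨g • (v : E), AddSubgroup.smul_mem_pointwise_smul _ _ _ v.2⟩
      left_inv := fun v => by simp
      right_inv := fun v => by simp }
  have := v.2
  rwa [AddSubgroup.mem_pointwise_smul_iff_inv_smul_mem] at this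

theorem cover_bound [Finite D] [Finite E]
    (htrans : ∀ a b : E, a ≠ 0 → b ≠ 0 → ∃ d : D, d • a = b) {s : ℕ} (hs : s.Prime)
    {U : Subgroup D} (hU : U.Normal) {y : D} (hy : y ∈ U) (hy1 : y ≠ 1) (hys : y ^ s = 1)
    (hfix : fixA (E := E) {y} ≠ ⊥) :
    (s - 1) * (Nat.card E - 1) ≤ Nat.card U * (Nat.card (fixA (E := E) {y}) - 1) := by
  classical
  letI := Fintype.ofFinite D
  letI := Fintype.ofFinite E
  haveI : Fact s.Prime := ⟨hs⟩
  have hord : orderOf y = s := orderOf_eq_prime hys hy1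
  set M := Nat.card (fixA (E := E) {y}) with hM
  let T : Finset D := Finset.univ.filter (fun u => u ∈ U ∧ Nat.card (fixA (E := E) {u}) ≤ M)
  let X : Finset E := Finset.univ.erase 0
  let r : E → D → Prop := fun v u => u • v = v
  have hcount := Finset.sum_card_bipartiteAbove_eq_sum_card_bipartiteBelow (s := X) (t := T) r
  obtain ⟨w, hwfix, hw0⟩ := exists_mem_ne_zero_of_ne_bot hfix
  have hwy : y • w = w := hwfix y rfl
  have hL : ∀ v ∈ X, s - 1 ≤ (T.bipartiteAbove r v).card := by
    intro v hv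
    have hv0 : v ≠ 0 := Finset.ne_of_mem_erase hv
    obtain ⟨g, hg⟩ := htrans w v hw0 hv0
    have hc : (Finset.Ico 1 s).card = s - 1 := by simp
    rw [← hc]
    refine Finset.card_le_card_of_injOn (fun i => g * y ^ i * g⁻¹) ?_ ?_
    · intro i hi
      have hi' := Finset.mem_Ico.1 hi
      simp only [Finset.coe_bipartiteAbove, Set.mem_ofPred_eq]
      refine ⟨?_, ?_⟩
      · refine Finset.mem_filter.2 ⟨Finset.mem_univ _, hU.conj_mem _ (U.pow_mem hy i) g, ?_⟩
        rw [card_fixA_conj, fixA_pow_eq hs hys (by omega) hi'.2]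
      · change (g * y ^ i * g⁻¹) • v = v
        rw [← hg]
        simp [mul_smul, pow_smul_of_fix hwy i]
    · intro i hi j hj hij
      have hi' := Finset.mem_Ico.1 hi
      have hj' := Finset.mem_Ico.1 hj
      have h1 : y ^ i = y ^ j := by
        simpa using hij
      exact pow_injOn_Iio_orderOf (x := y) (x₁ := i) (x₂ := j) (by simp [hord, hi'.2])
        (by simp [hord, hj'.2]) h1
  have hR : ∀ u ∈ T, (X.bipartiteBelow r u).card ≤ M - 1 := by
    intro u hu
    have hu' := (Finset.mem_filter.1 hu).2.2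
    have h0 : (0 : E) ∉ X.bipartiteBelow r u := by
      intro h0
      exact (Finset.mem_erase.1 (Finset.mem_filter.1 h0).1).1 rfl
    have h1 : (insert 0 (X.bipartiteBelow r u)).card = (X.bipartiteBelow r u).card + 1 :=
      Finset.card_insert_of_notMem h0
    have h2 : (insert 0 (X.bipartiteBelow r u)).card ≤ Nat.card (fixA (E := E) {u}) := by
      have h3 : ((insert 0 (X.bipartiteBelow r u) : Finset E) : Set E) ⊆
          (fixA (E := E) {u} : Set E) := by
        intro v hv
        rcases Finset.mem_insert.1 (Finset.mem_coe.1 hv) with rfl | hv'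
        · exact (fixA (E := E) {u}).zero_mem
        · rintro _ rfl
          exact (Finset.mem_filter.1 hv').2
      have h4 := Set.ncard_le_ncard h3 (Set.toFinite _)
      rw [Set.ncard_coe_finset] at h4
      rw [← Nat.card_coe_set_eq] at h4
      exact h4
    omega
  have hT : T.card ≤ Nat.card U := by
    have h3 : (T : Set D) ⊆ (U : Set D) := by
      intro u hu
      exact (Finset.mem_filter.1 (Finset.mem_coe.1 hu)).2.1
    have h4 := Set.ncard_le_ncard h3 (Set.toFinite _)
    rw [Set.ncard_coe_finset, ← Nat.card_coe_set_eq] at h4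
    exact h4
  have hX : X.card = Nat.card E - 1 := by
    rw [Finset.card_erase_of_mem (Finset.mem_univ _), Finset.card_univ, Nat.card_eq_fintype_card]
  calc (s - 1) * (Nat.card E - 1) = X.card • (s - 1) := by rw [hX, smul_eq_mul, mul_comm]
    _ ≤ ∑ v ∈ X, (T.bipartiteAbove r v).card := Finset.card_nsmul_le_sum _ _ _ hL
    _ = ∑ u ∈ T, (X.bipartiteBelow r u).card := hcount
    _ ≤ T.card • (M - 1) := Finset.sum_le_card_nsmul _ _ _ hR
    _ ≤ Nat.card U * (M - 1) := by
        rw [smul_eq_mul]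
        exact Nat.mul_le_mul_right _ hT

theorem numeric_final {s M A u w : ℕ} (hs : 3 ≤ s) (hM : 2 ≤ M) (hA : M ^ s ≤ A)
    (h1 : (s - 1) * (A - 1) ≤ u * (M - 1)) (h2 : u ≤ w * s * s)
    (h3 : w * s ^ 2 ≤ (s - 1) * M ^ (s - 1)) : False := by
  obtain ⟨r, rfl⟩ : ∃ r, s = r + 3 := ⟨s - 3, by omega⟩
  obtain ⟨m, rfl⟩ : ∃ m, M = m + 1 := ⟨M - 1, by omega⟩
  have e1 : r + 3 - 1 = r + 2 := by omega
  have e2 : m + 1 - 1 = m := by omega
  rw [e1, e2] at h1
  rw [e1] at h3
  set P := (m + 1) ^ (r + 2) with hP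
  have hP2 : 2 ≤ P := by
    calc 2 ≤ m + 1 := hM
      _ = (m + 1) ^ 1 := (pow_one _).symm
      _ ≤ P := Nat.pow_le_pow_right (by omega) (by omega)
  have hA' : P * (m + 1) ≤ A := by
    rw [hP, ← pow_succ]; exact hA
  have h4 : (r + 2) * (A - 1) ≤ (r + 2) * (P * m) := by
    calc (r + 2) * (A - 1) ≤ u * m := h1
      _ ≤ (w * (r + 3) * (r + 3)) * m := Nat.mul_le_mul_right _ h2
      _ = (w * (r + 3) ^ 2) * m := by ring
      _ ≤ ((r + 2) * P) * m := Nat.mul_le_mul_right _ h3
      _ = (r + 2) * (P * m) := by ring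
  have h5 : A - 1 ≤ P * m := Nat.le_of_mul_le_mul_left h4 (by omega)
  have h6 : P * (m + 1) = P * m + P := by ring
  omega

/-- **A normal subgroup of extraspecial type is abelian.** -/
theorem false_of_noncomm [Finite D] [Finite E] [Nontrivial E] {s : ℕ} (two : ∀ e : E, e + e = 0)
    (hs : s.Prime) (hodd : Odd s) (htrans : ∀ a b : E, a ≠ 0 → b ≠ 0 → ∃ d : D, d • a = b)
    {Z₀ U : Subgroup D} (h : ExtraData s Z₀ U) (hU : U.Normal)
    (hfpf : ∀ z ∈ Z₀, z ≠ 1 → ∀ e : E, z • e = e → e = 0)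
    {x y : D} (hx : x ∈ U) (hy : y ∈ U) (hxy : x * y ≠ y * x) : False := by
  have hs3 : 3 ≤ s := by
    have := hs.two_le
    rcases hodd with ⟨m, rfl⟩
    omega
  have hinv : ∀ u ∈ U, ∀ e ∈ (⊤ : AddSubgroup E), u • e ∈ (⊤ : AddSubgroup E) :=
    fun _ _ _ _ => trivial
  have hfpf' : ∀ z ∈ Z₀, z ≠ 1 → ∀ e ∈ (⊤ : AddSubgroup E), z • e = e → e = 0 :=
    fun z hz hz1 e _ => hfpf z hz hz1 e
  have hcfg := h.cfg two hs hodd hx hy hxy hinv hfpf'
  have hE : (⊤ : AddSubgroup E) ≠ ⊥ := top_ne_bot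
  have hne := hcfg.fix_ne_bot hE
  have hcard := hcfg.card_pow_le
  have hW := h.W_data hs hx hy hxy
  have hinvW := ExtraData.W_inv (x := x) (y := y) hinv
  have hfpfW : ∀ z ∈ Z₀, z ≠ 1 → ∀ e ∈ (⊤ : AddSubgroup E) ⊓ fixA (E := E) {y},
      z • e = e → e = 0 := fun z hz hz1 e _ => hfpf z hz hz1 e
  have hbound := card_mul_le two hs hodd _ Z₀ _ _ le_rfl hW hne hinvW hfpfW
  have hM := hW.succ_le_card hs hne hinvW hfpfW
  have hU2 := h.card_le_W hx hy
  rw [top_inf_eq] at hne hcard hbound hM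
  have hy1 : y ≠ 1 := by
    rintro rfl
    simp at hxy
  have hcov := cover_bound htrans hs hU hy hy1 (h.exp y hy) hne
  rw [AddSubgroup.card_top] at hcard
  exact numeric_final hs3 (by omega) hcard hcov hU2 hbound

end Cfsg.Agent.Lib.TransLin.Cover
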