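import Cfsg.Agent.Lib.TransLin.Proj

/-!
# A lower bound for faithful modules of groups of extraspecial type

`ExtraData s Z₀ U`: the subgroup `U` has exponent `s`, its commutators lie in its centre `Z₀`, which
has order `s`. If `Z₀` acts freely on a non-zero 2-torsion `U`-module `E₁`, then
`|U| * s ^ 2 ≤ (s - 1) * |E₁| ^ (s - 1)`.
-/

set_option autoImplicit false
set_option linter.style.haveILetI false
set_option linter.unusedSectionVars false

namespace Cfsg.Agent.Lib.TransLin.Extra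

open Cfsg.Agent.Lib.TransLin.Basic Cfsg.Agent.Lib.TransLin.Proj
open scoped commutatorElement

variable {D E : Type*} [Group D] [AddCommGroup E] [DistribMulAction D E]

/-- Groups of extraspecial type (in terms of subgroups of `D`). -/
structure ExtraData (s : ℕ) (Z₀ U : Subgroup D) : Prop where
  Z_le : Z₀ ≤ U
  Z_card : Nat.card Z₀ = s
  Z_central : ∀ z ∈ Z₀, ∀ u ∈ U, z * u = u * z
  exp : ∀ u ∈ U, u ^ s = 1
  comm : ∀ u ∈ U, ∀ v ∈ U, ⁅u, v⁆ ∈ Z₀
  center : ∀ u ∈ U, (∀ v ∈ U, u * v = v * u) → u ∈ Z₀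

namespace ExtraData

variable {s : ℕ} {Z₀ U : Subgroup D}

theorem comm_mul (h : ExtraData s Z₀ U) {u v x : D} (hu : u ∈ U) (hv : v ∈ U) (hx : x ∈ U) :
    ⁅u * v, x⁆ = ⁅u, x⁆ * ⁅v, x⁆ := by
  have h1 : ⁅v, x⁆ ∈ Z₀ := h.comm v hv x hx
  have h2 : ⁅u, x⁆ ∈ U := h.Z_le (h.comm u hu x hx)
  have h3 : ⁅v, x⁆ * u = u * ⁅v, x⁆ := h.Z_central _ h1 u hu
  have h4 : ⁅v, x⁆ * ⁅u, x⁆ = ⁅u, x⁆ * ⁅v, x⁆ := h.Z_central _ h1 _ h2
  have h5 : v * x * v⁻¹ = ⁅v, x⁆ * x := by simp [commutatorElement_def]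
  calc ⁅u * v, x⁆ = u * (v * x * v⁻¹) * u⁻¹ * x⁻¹ := by
        simp [commutatorElement_def, mul_assoc]
    _ = (u * ⁅v, x⁆) * x * u⁻¹ * x⁻¹ := by rw [h5]; simp [mul_assoc]
    _ = ⁅v, x⁆ * ⁅u, x⁆ := by
        rw [← h3]; simp [commutatorElement_def, mul_assoc]
    _ = ⁅u, x⁆ * ⁅v, x⁆ := h4

/-- The commutator homomorphism. -/
def commHom (h : ExtraData s Z₀ U) {x : D} (hx : x ∈ U) : U →* Z₀ where
  toFun u := ⟨⁅(u : D), x⁆, h.comm _ u.2 _ hx⟩
  map_one' := Subtype.ext (by simp)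
  map_mul' u v := Subtype.ext (by
    simpa using h.comm_mul u.2 v.2 hx)

@[simp] theorem commHom_coe (h : ExtraData s Z₀ U) {x : D} (hx : x ∈ U) (u : U) :
    (h.commHom hx u : D) = ⁅(u : D), x⁆ := rfl

/-- The centralizer of an element has index at most `s`. -/
theorem card_le_of_comm [Finite D] (h : ExtraData s Z₀ U) {V : Subgroup D} (hV : V ≤ U) {x : D}
    (hx : x ∈ U) : Nat.card V ≤ Nat.card ↥(V ⊓ Subgroup.centralizer {x}) * s := by
  let f : V →* Z₀ := (h.commHom hx).comp (Subgroup.inclusion hV)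
  have h1 := Subgroup.card_mul_index f.ker
  rw [Subgroup.index_ker] at h1
  rw [← h1]
  have h2 : Nat.card f.range ≤ s := by
    rw [← h.Z_card]
    exact Subgroup.card_le_card_group _
  have h3 : Nat.card f.ker ≤ Nat.card ↥(V ⊓ Subgroup.centralizer {x}) := by
    let φ : f.ker → ↥(V ⊓ Subgroup.centralizer {x}) := fun k =>
      ⟨((k : V) : D), (k : V).2, by
        have hk : f (k : V) = 1 := k.2
        have hk2 : ⁅((k : V) : D), x⁆ = 1 := congrArg Subtype.val hk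
        rw [commutatorElement_eq_one_iff_mul_comm] at hk2
        exact Subgroup.mem_centralizer_singleton_iff.2 hk2⟩
    refine Nat.card_le_card_of_injective φ ?_
    intro a b hab
    exact Subtype.ext (Subtype.ext (congrArg (fun w : ↥(V ⊓ Subgroup.centralizer {x}) => (w : D)) hab))
  exact Nat.mul_le_mul h3 h2

/-- The subgroup `W = C_U(x) ∩ C_U(y)`. -/
abbrev W (U : Subgroup D) (x y : D) : Subgroup D :=
  U ⊓ Subgroup.centralizer {x} ⊓ Subgroup.centralizer {y}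

theorem card_le_W [Finite D] (h : ExtraData s Z₀ U) {x y : D} (hx : x ∈ U) (hy : y ∈ U) :
    Nat.card U ≤ Nat.card (W U x y) * s * s := by
  have h1 := h.card_le_of_comm le_rfl hx
  have h2 := h.card_le_of_comm (V := U ⊓ Subgroup.centralizer {x}) inf_le_left hy
  calc Nat.card U ≤ Nat.card ↥(U ⊓ Subgroup.centralizer {x}) * s := h1
    _ ≤ Nat.card (W U x y) * s * s := Nat.mul_le_mul_right _ h2

theorem s_prime_zpowers [Finite D] (h : ExtraData s Z₀ U) (hs : s.Prime) {c : D} (hc : c ∈ Z₀)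
    (hc1 : c ≠ 1) : Z₀ = Subgroup.zpowers c := by
  haveI : Fact s.Prime := ⟨hs⟩
  have h1 : Subgroup.zpowers c ≤ Z₀ := (Subgroup.zpowers_le).2 hc
  symm
  apply Subgroup.eq_of_le_of_card_ge h1
  have h2 : c ^ s = 1 := h.exp c (h.Z_le hc)
  rw [Nat.card_zpowers, orderOf_eq_prime h2 hc1, h.Z_card]

theorem exists_zpow_eq [Finite D] (h : ExtraData s Z₀ U) (hs : s.Prime) {c t : D} (hc : c ∈ Z₀)
    (hc1 : c ≠ 1) (ht : t ∈ Z₀) : ∃ a : ℤ, c ^ a = t := by
  rw [h.s_prime_zpowers hs hc hc1] at ht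
  exact Subgroup.mem_zpowers_iff.1 ht

/-- `W` is again of extraspecial type. -/
theorem W_data [Finite D] (h : ExtraData s Z₀ U) (hs : s.Prime) {x y : D} (hx : x ∈ U) (hy : y ∈ U)
    (hxy : x * y ≠ y * x) : ExtraData s Z₀ (W U x y) := by
  have hWU : W U x y ≤ U := fun u hu => hu.1.1
  refine ⟨?_, h.Z_card, fun z hz u hu => h.Z_central z hz u (hWU hu),
    fun u hu => h.exp u (hWU hu), fun u hu v hv => h.comm u (hWU hu) v (hWU hv), ?_⟩
  · intro z hz
    refine ⟨⟨h.Z_le hz, ?_⟩, ?_⟩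
    · exact Subgroup.mem_centralizer_singleton_iff.2 (h.Z_central z hz x hx)
    · exact Subgroup.mem_centralizer_singleton_iff.2 (h.Z_central z hz y hy)
  · intro u hu hcomm
    have huU : u ∈ U := hWU hu
    have hux : Commute u x := Subgroup.mem_centralizer_singleton_iff.1 hu.1.2
    have huy : Commute u y := Subgroup.mem_centralizer_singleton_iff.1 hu.2
    apply h.center u huU
    intro v hv
    -- the two homomorphisms
    let fx := h.commHom hx
    let fy := h.commHom hy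
    let X : U := ⟨x, hx⟩
    let Y : U := ⟨y, hy⟩
    let V : U := ⟨v, hv⟩
    have hc1 : ⁅x, y⁆ ≠ 1 := fun h1 => hxy ((commutatorElement_eq_one_iff_mul_comm).1 h1)
    have hc1' : ⁅y, x⁆ ≠ 1 := fun h1 => hxy ((commutatorElement_eq_one_iff_mul_comm).1 h1).symm
    obtain ⟨a, ha⟩ := h.exists_zpow_eq hs (h.comm x hx y hy) hc1 (h.comm v hv y hy)
    have hfyX : ((fy X : Z₀) : D) = ⁅x, y⁆ := rfl
    have hfxY : ((fx Y : Z₀) : D) = ⁅y, x⁆ := rfl
    have hfyY : fy Y = 1 := Subtype.ext (by simp [fy, Y])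
    have hfxX : fx X = 1 := Subtype.ext (by simp [fx, X])
    have hV1 : fy (V * X ^ (-a)) = 1 := by
      rw [map_mul, map_zpow]
      apply Subtype.ext
      have : ((fy V : Z₀) : D) = ⁅x, y⁆ ^ a := ha.symm
      simp [this, hfyX]
    obtain ⟨b, hb⟩ := h.exists_zpow_eq hs (h.comm y hy x hx) hc1'
      (h.comm _ (V * X ^ (-a)).2 x hx)
    have hV2x : fx (V * X ^ (-a) * Y ^ (-b)) = 1 := by
      rw [map_mul fx (V * X ^ (-a)) (Y ^ (-b)), map_zpow fx Y]
      apply Subtype.ext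
      have : ((fx (V * X ^ (-a)) : Z₀) : D) = ⁅y, x⁆ ^ b := hb.symm
      rw [Subgroup.coe_mul, Subgroup.coe_zpow, this, hfxY]
      simp
    have hV2y : fy (V * X ^ (-a) * Y ^ (-b)) = 1 := by
      rw [map_mul fy (V * X ^ (-a)) (Y ^ (-b)), hV1, map_zpow fy Y, hfyY]
      simp
    set v₂ : U := V * X ^ (-a) * Y ^ (-b) with hv₂
    have hv₂x : ⁅(v₂ : D), x⁆ = 1 := congrArg Subtype.val hV2x
    have hv₂y : ⁅(v₂ : D), y⁆ = 1 := congrArg Subtype.val hV2y
    rw [commutatorElement_eq_one_iff_mul_comm] at hv₂x hv₂y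
    have hv₂W : (v₂ : D) ∈ W U x y :=
      ⟨⟨v₂.2, Subgroup.mem_centralizer_singleton_iff.2 hv₂x⟩,
        Subgroup.mem_centralizer_singleton_iff.2 hv₂y⟩
    have huv₂ : Commute u (v₂ : D) := hcomm _ hv₂W
    have hvv : v = (v₂ : D) * y ^ b * x ^ a := by
      have : (v₂ : D) = v * x ^ (-a) * y ^ (-b) := by simp [hv₂, V, X, Y]
      rw [this]; simp [mul_assoc]
    have : Commute u v := by
      rw [hvv]
      exact (huv₂.mul_right (huy.zpow_right b)).mul_right (hux.zpow_right a)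
    exact this

/-- The bound for modules with a free action of `Z₀`. -/
theorem succ_le_card [Finite D] [Finite E] (h : ExtraData s Z₀ U) (hs : s.Prime) {E₁ : AddSubgroup E}
    (hE : E₁ ≠ ⊥) (hinv : ∀ u ∈ U, ∀ e ∈ E₁, u • e ∈ E₁)
    (hfpf : ∀ z ∈ Z₀, z ≠ 1 → ∀ e ∈ E₁, z • e = e → e = 0) : s + 1 ≤ Nat.card E₁ := by
  classical
  haveI : Fact s.Prime := ⟨hs⟩
  have hZ1 : 1 < Nat.card Z₀ := by rw [h.Z_card]; exact hs.one_lt
  haveI : Nontrivial Z₀ := (Finite.one_lt_card_iff_nontrivial).1 hZ1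
  obtain ⟨⟨z, hz⟩, hz1'⟩ := exists_ne (1 : Z₀)
  have hz1 : z ≠ 1 := fun h1 => hz1' (Subtype.ext h1)
  have hzs : z ^ s = 1 := h.exp z (h.Z_le hz)
  have hord : orderOf z = s := orderOf_eq_prime hzs hz1
  obtain ⟨e, heE, he0⟩ := exists_mem_ne_zero_of_ne_bot hE
  have hmem : ∀ i : ℕ, z ^ i • e ∈ E₁ := fun i =>
    pow_smul_mem (fun e he => hinv z (h.Z_le hz) e he) heE i
  let Φ : Option (Fin s) → E₁ := fun o => match o with
    | none => 0
    | some i => ⟨z ^ (i : ℕ) • e, hmem i⟩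
  have hinj : Function.Injective Φ := by
    have hne : ∀ i : Fin s, Φ (some i) ≠ 0 := by
      intro i h0
      have : z ^ (i : ℕ) • e = 0 := congrArg Subtype.val h0
      exact he0 ((smul_eq_zero_iff_eq _).1 this)
    rintro (_ | i) (_ | j) hij
    · rfl
    · exact absurd hij.symm (hne j)
    · exact absurd hij (hne i)
    · have h1 : z ^ (i : ℕ) • e = z ^ (j : ℕ) • e := congrArg Subtype.val hij
      congr 1
      by_contra hne'
      have ht : (z ^ (j : ℕ))⁻¹ * z ^ (i : ℕ) ≠ 1 := by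
        intro h2
        rw [inv_mul_eq_one] at h2
        exact hne' (Fin.ext (pow_injOn_Iio_orderOf (x := z) (x₁ := j) (x₂ := i)
          (by simp [hord]) (by simp [hord]) h2).symm)
      exact he0 (hfpf _ (Z₀.mul_mem (Z₀.inv_mem (Z₀.pow_mem hz _)) (Z₀.pow_mem hz _)) ht e heE
        (by rw [mul_smul, h1]; simp))
  have := Nat.card_le_card_of_injective Φ hinj
  rw [Finite.card_option, Nat.card_fin] at this
  exact this

/-- The configuration for a non-commuting pair. -/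
theorem cfg [Finite D] (h : ExtraData s Z₀ U) (two : ∀ e : E, e + e = 0) (hs : s.Prime)
    (hodd : Odd s) {x y : D} (hx : x ∈ U) (hy : y ∈ U) (hxy : x * y ≠ y * x) {E₁ : AddSubgroup E}
    (hinv : ∀ u ∈ U, ∀ e ∈ E₁, u • e ∈ E₁)
    (hfpf : ∀ z ∈ Z₀, z ≠ 1 → ∀ e ∈ E₁, z • e = e → e = 0) : Cfg s x y ⁅x, y⁆ E₁ := by
  have hc1 : ⁅x, y⁆ ≠ 1 := fun h1 => hxy ((commutatorElement_eq_one_iff_mul_comm).1 h1)
  have hcZ : ⁅x, y⁆ ∈ Z₀ := h.comm x hx y hy
  have hZc : Z₀ = Subgroup.zpowers ⁅x, y⁆ := h.s_prime_zpowers hs hcZ hc1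
  exact
    { two := two
      sprime := hs
      sodd := hodd
      c1 := hc1
      cs := h.exp _ (h.Z_le hcZ)
      ys := h.exp y hy
      cx := h.Z_central _ hcZ x hx
      cy := h.Z_central _ hcZ y hy
      xy := by simp [commutatorElement_def]
      xE := hinv x hx
      xE' := hinv x⁻¹ (U.inv_mem hx)
      yE := hinv y hy
      cE := fun t ht => hinv t (h.Z_le (hZc ▸ ht))
      fpf := fun t ht ht1 => hfpf t (hZc ▸ ht) ht1 }

theorem W_inv {x y : D} {E₁ : AddSubgroup E} (hinv : ∀ u ∈ U, ∀ e ∈ E₁, u • e ∈ E₁) :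
    ∀ u ∈ W U x y, ∀ e ∈ E₁ ⊓ Basic.fixA (E := E) {y}, u • e ∈ E₁ ⊓ Basic.fixA (E := E) {y} := by
  intro u hu e he
  refine ⟨hinv u hu.1.1 e he.1, ?_⟩
  intro t ht
  rw [Set.mem_singleton_iff.1 ht]
  have huy : u * y = y * u := Subgroup.mem_centralizer_singleton_iff.1 hu.2
  rw [← mul_smul, ← huy, mul_smul, he.2 y rfl]

end ExtraData

/-- A numerical inequality. -/
theorem numeric_step {s M A : ℕ} (hs : 3 ≤ s) (hM : s ≤ M) (hA : M ^ s ≤ A) :
    s ^ 2 * M ^ (s - 1) ≤ A ^ (s - 1) := by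
  obtain ⟨r, rfl⟩ : ∃ r, s = r + 3 := ⟨s - 3, by omega⟩
  have h0 : r + 3 - 1 = r + 2 := by omega
  rw [h0]
  have h1 : (M ^ (r + 3)) ^ (r + 2) ≤ A ^ (r + 2) := Nat.pow_le_pow_left hA _
  have hMpos : 0 < M := by omega
  have h2 : (r + 3) ^ 2 ≤ M ^ ((r + 2) * (r + 2)) := by
    calc (r + 3) ^ 2 ≤ M ^ 2 := Nat.pow_le_pow_left hM _
      _ ≤ M ^ ((r + 2) * (r + 2)) := Nat.pow_le_pow_right hMpos (by nlinarith)
  calc (r + 3) ^ 2 * M ^ (r + 2) ≤ M ^ ((r + 2) * (r + 2)) * M ^ (r + 2) :=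
        Nat.mul_le_mul_right _ h2
    _ = (M ^ (r + 3)) ^ (r + 2) := by
        rw [← pow_add, ← pow_mul]; congr 1; ring
    _ ≤ A ^ (r + 2) := h1

theorem numeric_base {s A : ℕ} (hs : 3 ≤ s) (hA : s + 1 ≤ A) :
    s * s ^ 2 ≤ (s - 1) * A ^ (s - 1) := by
  obtain ⟨r, rfl⟩ : ∃ r, s = r + 3 := ⟨s - 3, by omega⟩
  have h0 : r + 3 - 1 = r + 2 := by omega
  rw [h0]
  have h1 : (r + 4) ^ 2 ≤ A ^ (r + 2) := by
    calc (r + 4) ^ 2 ≤ A ^ 2 := Nat.pow_le_pow_left (by omega) _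
      _ ≤ A ^ (r + 2) := Nat.pow_le_pow_right (by omega) (by omega)
  calc (r + 3) * (r + 3) ^ 2 ≤ (r + 2) * (r + 4) ^ 2 := by nlinarith [sq_nonneg r]
    _ ≤ (r + 2) * A ^ (r + 2) := Nat.mul_le_mul_left _ h1

/-- **The bound.** -/
theorem card_mul_le [Finite D] [Finite E] {s : ℕ} (two : ∀ e : E, e + e = 0) (hs : s.Prime)
    (hodd : Odd s) (n : ℕ) : ∀ (Z₀ U : Subgroup D) (E₁ : AddSubgroup E), Nat.card U ≤ n →
    ExtraData s Z₀ U → E₁ ≠ ⊥ → (∀ u ∈ U, ∀ e ∈ E₁, u • e ∈ E₁) →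
    (∀ z ∈ Z₀, z ≠ 1 → ∀ e ∈ E₁, z • e = e → e = 0) →
    Nat.card U * s ^ 2 ≤ (s - 1) * Nat.card E₁ ^ (s - 1) := by
  have hs3 : 3 ≤ s := by
    have := hs.two_le
    rcases hodd with ⟨m, rfl⟩
    omega
  induction n with
  | zero =>
    intro Z₀ U E₁ hn
    have : 0 < Nat.card U := Nat.card_pos
    omega
  | succ n ih =>
    intro Z₀ U E₁ hn h hE hinv hfpf
    by_cases hcomm : ∀ u ∈ U, ∀ v ∈ U, u * v = v * u
    · -- base case
      have hUZ : U ≤ Z₀ := fun u hu => h.center u hu (hcomm u hu)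
      have h1 : Nat.card U ≤ s := by
        rw [← h.Z_card]; exact Subgroup.card_le_of_le hUZ
      have h2 := h.succ_le_card hs hE hinv hfpf
      calc Nat.card U * s ^ 2 ≤ s * s ^ 2 := Nat.mul_le_mul_right _ h1
        _ ≤ _ := numeric_base hs3 h2
    · push Not at hcomm
      obtain ⟨x, hx, y, hy, hxy⟩ := hcomm
      have hWdata := h.W_data hs hx hy hxy
      have hcfg := h.cfg two hs hodd hx hy hxy hinv hfpf
      set E₂ := E₁ ⊓ Basic.fixA (E := E) {y} with hE₂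
      have hE₂0 : E₂ ≠ ⊥ := hcfg.fix_ne_bot hE
      have hE₂card : Nat.card E₂ ^ s ≤ Nat.card E₁ := hcfg.card_pow_le
      have hWlt : Nat.card (ExtraData.W U x y) < Nat.card U := by
        have hle : ExtraData.W U x y ≤ U := fun u hu => hu.1.1
        refine lt_of_le_of_ne (Subgroup.card_le_of_le hle) fun heq => ?_
        have : ExtraData.W U x y = U := Subgroup.eq_of_le_of_card_ge hle heq.ge
        have hxW : x ∈ ExtraData.W U x y := by rw [this]; exact hx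
        exact hxy (Subgroup.mem_centralizer_singleton_iff.1 hxW.2)
      have hinvW : ∀ u ∈ ExtraData.W U x y, ∀ e ∈ E₂, u • e ∈ E₂ := ExtraData.W_inv hinv
      have hfpfW : ∀ z ∈ Z₀, z ≠ 1 → ∀ e ∈ E₂, z • e = e → e = 0 :=
        fun z hz hz1 e he hze => hfpf z hz hz1 e he.1 hze
      have IH := ih Z₀ _ E₂ (by omega) hWdata hE₂0 hinvW hfpfW
      have hM := hWdata.succ_le_card hs hE₂0 hinvW hfpfW
      have hnum := numeric_step hs3 (by omega : s ≤ Nat.card E₂) hE₂card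
      have hU := h.card_le_W hx hy
      calc Nat.card U * s ^ 2 ≤ (Nat.card (ExtraData.W U x y) * s * s) * s ^ 2 :=
            Nat.mul_le_mul_right _ hU
        _ = s ^ 2 * (Nat.card (ExtraData.W U x y) * s ^ 2) := by ring
        _ ≤ s ^ 2 * ((s - 1) * Nat.card E₂ ^ (s - 1)) := Nat.mul_le_mul_left _ IH
        _ = (s - 1) * (s ^ 2 * Nat.card E₂ ^ (s - 1)) := by ring
        _ ≤ (s - 1) * Nat.card E₁ ^ (s - 1) := Nat.mul_le_mul_left _ hnum

end Cfsg.Agent.Lib.TransLin.Extra
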