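import Cfsg.Agent.Lib.TransLin.Omega
import Cfsg.Agent.Lib.Solvable.Fitting

/-!
# Finite groups of odd order transitive on the non-zero vectors: the Fitting subgroup

`D` of odd order acts faithfully on `E ≠ 0`, transitively on `E ∖ {0}`. Then `F(D)` is cyclic, its
non-identity elements fix no non-zero vector, and if `D` is solvable, `D' ≤ F(D)`.
(By the odd order theorem, `D` is always solvable.)
-/

set_option autoImplicit false
set_option linter.style.haveILetI false
set_option linter.unusedSectionVars false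

namespace Cfsg.Agent.Lib.TransLin.Main

open Cfsg Cfsg.Agent.Lib.TransLin.Basic Cfsg.Agent.Lib.TransLin.Omega
open Cfsg.Agent.Lib.Core.Basic
open scoped commutatorElement

variable {D E : Type*} [Group D] [AddCommGroup E] [DistribMulAction D E]

/-- `F(D)` is abelian. -/
theorem fitting_comm [Finite D] [Finite E] [Nontrivial E] [FaithfulSMul D E]
    (hodd : Odd (Nat.card D)) (htrans : ∀ a b : E, a ≠ 0 → b ≠ 0 → ∃ d : D, d • a = b) :
    ∀ x ∈ fittingSubgroup D, ∀ y ∈ fittingSubgroup D, x * y = y * x := by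
  have h1 : ∀ p q : Nat.Primes, pCore (p : ℕ) D ≤ Subgroup.centralizer (pCore (q : ℕ) D : Set D) := by
    intro p q
    haveI : Fact (p : ℕ).Prime := ⟨p.2⟩
    haveI : Fact (q : ℕ).Prime := ⟨q.2⟩
    intro x hx
    refine Subgroup.mem_centralizer_iff.2 fun y hy => ?_
    by_cases hpq : p = q
    · subst hpq
      exact comm_of_normal_pGroup hodd htrans (E := E) p.2 (pCore_normal _ D) pCore_isPGroup y hy x hx
    · have hdisj : Disjoint (pCore (q : ℕ) D) (pCore (p : ℕ) D) := by
        refine IsPGroup.disjoint_of_ne (q : ℕ) (p : ℕ) ?_ _ _ pCore_isPGroup pCore_isPGroup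
        intro h
        exact hpq (Subtype.ext h.symm)
      exact Subgroup.commute_of_normal_of_disjoint _ _ (pCore_normal _ D) (pCore_normal _ D)
        hdisj y x hy hx
  have h2 : ∀ q : Nat.Primes, fittingSubgroup D ≤ Subgroup.centralizer (pCore (q : ℕ) D : Set D) := by
    intro q
    rw [fittingSubgroup_eq_iSup_pCore]
    exact iSup_le fun p => h1 p q
  have h3 : fittingSubgroup D ≤ Subgroup.centralizer (fittingSubgroup D : Set D) := by
    conv_lhs => rw [fittingSubgroup_eq_iSup_pCore]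
    refine iSup_le fun q => ?_
    rw [Subgroup.le_centralizer_iff]
    exact h2 q
  intro x hx y hy
  exact ((Subgroup.mem_centralizer_iff.1 (h3 hx)) y hy).symm

theorem fitting_cyclic [Finite D] [Finite E] [Nontrivial E] [FaithfulSMul D E]
    (hodd : Odd (Nat.card D)) (htrans : ∀ a b : E, a ≠ 0 → b ≠ 0 → ∃ d : D, d • a = b) :
    IsCyclic (fittingSubgroup D) :=
  isCyclic_of_abelian_normal htrans fittingSubgroup_normal' (fitting_comm hodd htrans)

theorem fitting_fpf [Finite D] [Finite E] [Nontrivial E] [FaithfulSMul D E]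
    (hodd : Odd (Nat.card D)) (htrans : ∀ a b : E, a ≠ 0 → b ≠ 0 → ∃ d : D, d • a = b) :
    ∀ g ∈ fittingSubgroup D, g ≠ 1 → ∀ a : E, g • a = a → a = 0 := fun _ hg hg1 a ha =>
  fpf_of_abelian_normal htrans fittingSubgroup_normal' (fitting_comm hodd htrans) hg hg1 a ha

/-- If a normal subgroup `F` is cyclic and contains its centralizer then `D' ≤ F`. -/
theorem commutator_le_of_cyclic_normal {F : Subgroup D} (hF : F.Normal) (hc : IsCyclic F)
    (hCF : Subgroup.centralizer (F : Set D) ≤ F) : commutator D ≤ F := by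
  obtain ⟨⟨f₀, hf₀⟩, hgen⟩ := hc.exists_generator
  have hgen' : ∀ f ∈ F, ∃ n : ℤ, f₀ ^ n = f := by
    intro f hf
    obtain ⟨n, hn⟩ := Subgroup.mem_zpowers_iff.1 (hgen ⟨f, hf⟩)
    exact ⟨n, congrArg Subtype.val hn⟩
  have hconj : ∀ g : D, ∃ a : ℤ, ∀ f ∈ F, g * f * g⁻¹ = f ^ a := by
    intro g
    obtain ⟨a, ha⟩ := hgen' _ (hF.conj_mem f₀ hf₀ g)
    refine ⟨a, fun f hf => ?_⟩
    obtain ⟨n, rfl⟩ := hgen' f hf
    rw [← MulAut.conj_apply, map_zpow, MulAut.conj_apply, ← ha, ← zpow_mul, ← zpow_mul, mul_comm]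
  have hcomm : ∀ g h : D, ∀ f ∈ F, (g * h) * f * (g * h)⁻¹ = (h * g) * f * (h * g)⁻¹ := by
    intro g h f hf
    obtain ⟨a, ha⟩ := hconj g
    obtain ⟨b, hb⟩ := hconj h
    have h1 : (g * h) * f * (g * h)⁻¹ = g * (h * f * h⁻¹) * g⁻¹ := by group
    have h2 : (h * g) * f * (h * g)⁻¹ = h * (g * f * g⁻¹) * h⁻¹ := by group
    rw [h1, h2, hb f hf, ha f hf, ha _ (F.zpow_mem hf b), hb _ (F.zpow_mem hf a), ← zpow_mul,
      ← zpow_mul, mul_comm]
  rw [commutator_def, Subgroup.commutator_le]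
  intro g _ h _
  apply hCF
  refine Subgroup.mem_centralizer_iff.2 fun f hf => ?_
  -- `⁅g, h⁆ = (g h) (h g)⁻¹`
  have hf' : (h * g)⁻¹ * f * (h * g) ∈ F := by
    simpa using hF.conj_mem f hf (h * g)⁻¹
  have h3 := hcomm g h _ hf'
  have h4 : (h * g) * ((h * g)⁻¹ * f * (h * g)) * (h * g)⁻¹ = f := by group
  rw [h4] at h3
  have h5 : ⁅g, h⁆ = g * h * (h * g)⁻¹ := by
    simp [commutatorElement_def, mul_assoc]
  rw [h5]
  calc f * (g * h * (h * g)⁻¹) = (g * h * ((h * g)⁻¹ * f * (h * g)) * (g * h)⁻¹) *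
        (g * h * (h * g)⁻¹) := by rw [h3]
    _ = g * h * (h * g)⁻¹ * f := by group

/-- The main theorem, with solvability as a hypothesis for the last clause. -/
theorem main [Finite D] [Finite E] [Nontrivial E] [FaithfulSMul D E]
    (hodd : Odd (Nat.card D)) (htrans : ∀ a b : E, a ≠ 0 → b ≠ 0 → ∃ d : D, d • a = b)
    (hsol : Group.IsSolvable D) :
    IsCyclic (fittingSubgroup D) ∧
      (∀ g ∈ fittingSubgroup D, g ≠ 1 → ∀ a : E, g • a = a → a = 0) ∧
      commutator D ≤ fittingSubgroup D :=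
  ⟨fitting_cyclic hodd htrans, fitting_fpf hodd htrans,
    commutator_le_of_cyclic_normal fittingSubgroup_normal' (fitting_cyclic hodd htrans)
      Cfsg.Agent.Lib.Solvable.Fitting.centralizer_fittingSubgroup_le⟩

end Cfsg.Agent.Lib.TransLin.Main
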