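import Cfsg.Agent.Lib.TransLin.Cover
import Cfsg.Agent.Lib.PGroups.ClassTwo
import Cfsg.Agent.Lib.PGroups.LowerCentral
import Cfsg.Agent.Lib.PGroups.NormalRankTwo

/-!
# Normal `s`-subgroups are abelian

For an odd prime `s`, a non-abelian `s`-subgroup `P` normal in `D` gives the subgroup
`U = Ω₁(Z₂(P))` of extraspecial type which is normal in `D`.
-/

set_option autoImplicit false
set_option linter.style.haveILetI false
set_option linter.unusedSectionVars false

namespace Cfsg.Agent.Lib.TransLin.Omega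

open Cfsg.Agent.Lib.TransLin.Basic Cfsg.Agent.Lib.TransLin.Extra Cfsg.Agent.Lib.TransLin.Cover
open Cfsg.Agent.Lib.PGroups
open scoped commutatorElement

variable {D : Type*} [Group D]

/-- The centre of `P`, as a subgroup of `D`. -/
abbrev ZP (P : Subgroup D) : Subgroup D := P ⊓ Subgroup.centralizer (P : Set D)

theorem ZP_comm {P : Subgroup D} {z g : D} (hz : z ∈ ZP P) (hg : g ∈ P) : z * g = g * z :=
  ((Subgroup.mem_centralizer_iff.1 hz.2) g hg).symm

theorem ZP_conj {P : Subgroup D} (hP : P.Normal) {z : D} (hz : z ∈ ZP P) (d : D) :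
    d * z * d⁻¹ ∈ ZP P := by
  refine ⟨hP.conj_mem z hz.1 d, ?_⟩
  refine Subgroup.mem_centralizer_iff.2 ?_
  intro h hh
  have hh' : d⁻¹ * h * d ∈ P := by
    simpa using hP.conj_mem h hh d⁻¹
  have := ZP_comm hz hh'
  calc h * (d * z * d⁻¹) = d * ((d⁻¹ * h * d) * z) * d⁻¹ := by group
    _ = d * (z * (d⁻¹ * h * d)) * d⁻¹ := by rw [this]
    _ = d * z * d⁻¹ * h := by group

/-- `Ω₁(Z₂(P))`. -/
def omega (P : Subgroup D) {s : ℕ} (hs : s.Prime) (hodd : Odd s) : Subgroup D where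
  carrier := {x | x ∈ P ∧ x ^ s = 1 ∧ ∀ g ∈ P, ⁅x, g⁆ ∈ ZP P}
  one_mem' := ⟨P.one_mem, one_pow s, fun g _ => by simp [(ZP P).one_mem]⟩
  mul_mem' := by
    rintro x y ⟨hxP, hxs, hxc⟩ ⟨hyP, hys, hyc⟩
    refine ⟨P.mul_mem hxP hyP, ?_, ?_⟩
    · have hc := hyc x hxP
      have h1 : Commute ⁅y, x⁆ x := ZP_comm hc hxP
      have h2 : Commute ⁅y, x⁆ y := ZP_comm hc hyP
      rw [ClassTwo.mul_pow_of_comm h1 h2, hxs, hys]
      have h3 := ClassTwo.pow_mul_of_comm h2 s
      rw [hys] at h3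
      have h4 : ⁅y, x⁆ ^ s = 1 := by
        simpa using h3.symm
      have h5 : s ∣ s.choose 2 := hs.dvd_choose_self (by norm_num) (by
        have := hs.two_le
        rcases hodd with ⟨m, rfl⟩
        omega)
      obtain ⟨k, hk⟩ := h5
      rw [hk, pow_mul, h4, one_pow, one_mul, one_mul]
    · intro g hg
      have hc := hyc g hg
      have h1 : ⁅y, g⁆ * x = x * ⁅y, g⁆ := ZP_comm hc hxP
      have h2 : y * g * y⁻¹ = ⁅y, g⁆ * g := by simp [commutatorElement_def]
      have h3 : ⁅x * y, g⁆ = ⁅y, g⁆ * ⁅x, g⁆ := by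
        calc ⁅x * y, g⁆ = x * (y * g * y⁻¹) * x⁻¹ * g⁻¹ := by
              simp [commutatorElement_def, mul_assoc]
          _ = x * ⁅y, g⁆ * g * x⁻¹ * g⁻¹ := by rw [h2]; simp [mul_assoc]
          _ = ⁅y, g⁆ * ⁅x, g⁆ := by
              rw [← h1]; simp [commutatorElement_def, mul_assoc]
      rw [h3]
      exact (ZP P).mul_mem hc (hxc g hg)
  inv_mem' := by
    rintro x ⟨hxP, hxs, hxc⟩
    refine ⟨P.inv_mem hxP, by rw [inv_pow, hxs, inv_one], ?_⟩
    intro g hg
    have hc := hxc g hg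
    have hc' : ⁅x, g⁆⁻¹ ∈ ZP P := (ZP P).inv_mem hc
    have h1 : ⁅x, g⁆⁻¹ * x = x * ⁅x, g⁆⁻¹ := ZP_comm hc' hxP
    have h2 : ⁅x⁻¹, g⁆ = ⁅x, g⁆⁻¹ := by
      have h3 : x⁻¹ * ⁅x, g⁆⁻¹ * x = ⁅x⁻¹, g⁆ := by
        simp [commutatorElement_def, mul_assoc]
      rw [← h3, mul_assoc, h1]
      simp
    rw [h2]
    exact hc'

theorem mem_omega {P : Subgroup D} {s : ℕ} {hs : s.Prime} {hodd : Odd s} {x : D} :
    x ∈ omega P hs hodd ↔ x ∈ P ∧ x ^ s = 1 ∧ ∀ g ∈ P, ⁅x, g⁆ ∈ ZP P := Iff.rfl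

theorem omega_normal {P : Subgroup D} (hP : P.Normal) {s : ℕ} (hs : s.Prime) (hodd : Odd s) :
    (omega P hs hodd).Normal := by
  constructor
  rintro x ⟨hxP, hxs, hxc⟩ d
  refine ⟨hP.conj_mem x hxP d, ?_, ?_⟩
  · rw [conj_pow, hxs]; simp
  · intro g hg
    have hg' : d⁻¹ * g * d ∈ P := by
      simpa using hP.conj_mem g hg d⁻¹
    have h1 := ZP_conj hP (hxc _ hg') d
    convert h1 using 1
    simp only [commutatorElement_def]
    group

/-- The normal `E_{s²}` of a non-cyclic `s`-group lies in the second centre. -/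
theorem exists_noncyclic_in_second_center {G : Type*} [Group G] [Finite G] {s : ℕ} [Fact s.Prime]
    (hs2 : s ≠ 2) (hG : IsPGroup s G) (hnc : ¬ IsCyclic G) :
    ∃ A : Subgroup G, ¬ IsCyclic A ∧ (∀ a ∈ A, a ^ s = 1) ∧
      ∀ a ∈ A, ∀ g : G, ⁅a, g⁆ ∈ Subgroup.center G := by
  obtain ⟨A, hAn, hAe, hAc⟩ := NormalRankTwo.exists_normal_elementaryAbelian_sq hs2 hG hnc
  have hexp : ∀ a ∈ A, a ^ s = 1 := by
    intro a ha
    exact hAe.2 a ha
  refine ⟨A, ?_, hexp, ?_⟩
  · intro hc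
    have h1 : Nat.card A ∣ s := by
      rw [← IsCyclic.exponent_eq_card]
      refine Monoid.exponent_dvd_of_forall_pow_eq_one fun a => Subtype.ext (hexp a a.2)
    rw [hAc] at h1
    have h2 := Nat.le_of_dvd (Fact.out : s.Prime).pos h1
    have h3 := (Fact.out : s.Prime).two_le
    nlinarith
  · haveI : Group.IsNilpotent G := hG.isNilpotent
    haveI := hAn
    set B : Subgroup G := ⁅A, (⊤ : Subgroup G)⁆ with hB
    have hBn : B.Normal := Subgroup.commutator_normal A ⊤
    have hB1 : Nat.card B ≤ s := by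
      by_cases hA0 : A = ⊥
      · have : B = ⊥ := by rw [hB, hA0]; exact Subgroup.commutator_bot_left ⊤
        rw [this, Subgroup.card_bot]
        exact (Fact.out : s.Prime).one_lt.le
      · have h1 := LowerCentral.commutator_top_lt A hA0
        have h2 := LowerCentral.mul_card_le_of_lt hG h1
        rw [hAc] at h2
        have h3 : s * Nat.card B ≤ s * s := by rw [← sq]; exact h2
        exact Nat.le_of_mul_le_mul_left h3 (Fact.out : s.Prime).pos
    have hB2 : ⁅B, (⊤ : Subgroup G)⁆ = ⊥ := by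
      by_contra hne
      have hB0 : B ≠ ⊥ := by
        intro h
        apply hne
        rw [h]
        exact Subgroup.commutator_bot_left ⊤
      have h1 := LowerCentral.commutator_top_lt B hB0
      have h2 := LowerCentral.mul_card_le_of_lt hG h1
      have h3 : Nat.card ↥⁅B, (⊤ : Subgroup G)⁆ ≤ 1 := by
        have : s * Nat.card ↥⁅B, (⊤ : Subgroup G)⁆ ≤ s * 1 := by
          rw [mul_one]; exact h2.trans hB1
        exact Nat.le_of_mul_le_mul_left this (Fact.out : s.Prime).pos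
      apply hne
      exact (Subgroup.eq_bot_iff_card _).2 (le_antisymm h3 Nat.card_pos)
    intro a ha g
    rw [Subgroup.mem_center_iff]
    intro h
    have hmem : ⁅a, g⁆ ∈ B := Subgroup.commutator_mem_commutator ha (Subgroup.mem_top g)
    have h4 : ⁅⁅a, g⁆, h⁆ ∈ ⁅B, (⊤ : Subgroup G)⁆ :=
      Subgroup.commutator_mem_commutator hmem (Subgroup.mem_top h)
    rw [hB2, Subgroup.mem_bot, commutatorElement_eq_one_iff_mul_comm] at h4
    exact h4.symm

variable {E : Type*} [AddCommGroup E] [DistribMulAction D E]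

/-- **Normal `s`-subgroups of `D` are abelian.** -/
theorem comm_of_normal_pGroup [Finite D] [Finite E] [Nontrivial E] [FaithfulSMul D E]
    (hodd : Odd (Nat.card D)) (htrans : ∀ a b : E, a ≠ 0 → b ≠ 0 → ∃ d : D, d • a = b)
    {s : ℕ} (hs : s.Prime) {P : Subgroup D} (hP : P.Normal) (hpP : IsPGroup s P) :
    ∀ x ∈ P, ∀ y ∈ P, x * y = y * x := by
  haveI : Fact s.Prime := ⟨hs⟩
  by_contra hcontra
  push Not at hcontra
  obtain ⟨x₀, hx₀, y₀, hy₀, hxy₀⟩ := hcontra
  -- `s` is odd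
  have hPne : Nat.card P ≠ 1 := by
    intro h1
    haveI : Subsingleton P := (Nat.card_eq_one_iff_unique.1 h1).1
    have : (⟨x₀, hx₀⟩ : P) = ⟨y₀, hy₀⟩ := Subsingleton.elim _ _
    have h2 : x₀ = y₀ := congrArg Subtype.val this
    exact hxy₀ (by rw [h2])
  have hsodd : Odd s := by
    obtain ⟨n, hn⟩ := IsPGroup.iff_card.1 hpP
    have hdvd : Nat.card P ∣ Nat.card D := Subgroup.card_subgroup_dvd_card P
    have hodd2 : Odd (Nat.card P) := Odd.of_dvd_nat hodd hdvd
    rw [hn] at hodd2 hPne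
    have hn0 : n ≠ 0 := by rintro rfl; simp at hPne
    exact (Nat.odd_pow_iff hn0).1 hodd2
  have hs2 : s ≠ 2 := by
    rintro rfl
    exact absurd hsodd (by decide)
  have two : ∀ e : E, e + e = 0 := add_self_eq_zero_of_odd hodd htrans
  -- `P` is not cyclic
  have hnc : ¬ IsCyclic P := by
    intro hc
    haveI := hc
    have := IsCyclic.isMulCommutative (α := P)
    have h2 : (⟨x₀, hx₀⟩ : P) * ⟨y₀, hy₀⟩ = ⟨y₀, hy₀⟩ * ⟨x₀, hx₀⟩ := this.is_comm.comm _ _
    exact hxy₀ (congrArg Subtype.val h2)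
  obtain ⟨A, hAnc, hAexp, hAc⟩ := exists_noncyclic_in_second_center hs2 hpP hnc
  set U := omega P hs hsodd with hU
  have hUn : U.Normal := omega_normal hP hs hsodd
  -- `A` embeds in `U`
  have hAU : ∀ a ∈ A, (a : D) ∈ U := by
    intro a ha
    refine ⟨a.2, ?_, ?_⟩
    · have := hAexp a ha
      exact congrArg Subtype.val this
    · intro g hg
      have h1 := hAc a ha ⟨g, hg⟩
      refine ⟨(⁅a, (⟨g, hg⟩ : P)⁆ : P).2, ?_⟩
      refine Subgroup.mem_centralizer_iff.2 ?_
      intro h hh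
      have h2 := (Subgroup.mem_center_iff.1 h1) ⟨h, hh⟩
      exact congrArg Subtype.val h2
  -- `U` is non-abelian
  have hUnc : ¬ ∀ x ∈ U, ∀ y ∈ U, x * y = y * x := by
    intro hab
    haveI := isCyclic_of_abelian_normal htrans hUn hab
    let f : A →* U :=
      { toFun := fun a => ⟨((a : P) : D), hAU a a.2⟩
        map_one' := rfl
        map_mul' := fun _ _ => rfl }
    have hf : Function.Injective f := by
      intro a b hab
      exact Subtype.ext (Subtype.ext (congrArg (fun w : U => (w : D)) hab))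
    exact hAnc (isCyclic_of_injective f hf)
  push Not at hUnc
  obtain ⟨x, hx, y, hy, hxy⟩ := hUnc
  set Z₀ : Subgroup D := U ⊓ Subgroup.centralizer (U : Set D) with hZ₀
  have hZn : Z₀.Normal := by
    haveI := hUn
    exact Subgroup.normal_inf_normal _ _
  have hZab : ∀ a ∈ Z₀, ∀ b ∈ Z₀, a * b = b * a := by
    intro a ha b hb
    exact ((Subgroup.mem_centralizer_iff.1 ha.2) b hb.1).symm
  have hZfpf : ∀ z ∈ Z₀, z ≠ 1 → ∀ e : E, z • e = e → e = 0 := fun z hz hz1 e he =>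
    fpf_of_abelian_normal htrans hZn hZab hz hz1 e he
  haveI hZcyc : IsCyclic Z₀ := isCyclic_of_abelian_normal htrans hZn hZab
  have hcomm : ∀ u ∈ U, ∀ v ∈ U, ⁅u, v⁆ ∈ Z₀ := by
    intro u hu v hv
    refine ⟨?_, ?_⟩
    · have : ⁅u, v⁆ = u * v * u⁻¹ * v⁻¹ := rfl
      rw [this]
      exact U.mul_mem (U.mul_mem (U.mul_mem hu hv) (U.inv_mem hu)) (U.inv_mem hv)
    · refine Subgroup.mem_centralizer_iff.2 ?_
      intro h hh
      exact (ZP_comm (hu.2.2 v hv.1) hh.1).symm
  have hZcard : Nat.card Z₀ = s := by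
    have h1 : Nat.card Z₀ ∣ s := by
      rw [← IsCyclic.exponent_eq_card]
      refine Monoid.exponent_dvd_of_forall_pow_eq_one fun a => Subtype.ext ?_
      exact a.2.1.2.1
    rcases (Nat.dvd_prime hs).1 h1 with h2 | h2
    · exfalso
      haveI : Subsingleton Z₀ := (Nat.card_eq_one_iff_unique.1 h2).1
      have h3 : (⟨⁅x, y⁆, hcomm x hx y hy⟩ : Z₀) = 1 := Subsingleton.elim _ _
      have h4 : ⁅x, y⁆ = 1 := congrArg Subtype.val h3
      exact hxy ((commutatorElement_eq_one_iff_mul_comm).1 h4)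
    · exact h2
  have hdata : ExtraData s Z₀ U :=
    { Z_le := inf_le_left
      Z_card := hZcard
      Z_central := fun z hz u hu => ((Subgroup.mem_centralizer_iff.1 hz.2) u hu).symm
      exp := fun u hu => hu.2.1
      comm := hcomm
      center := fun u hu hc => ⟨hu, Subgroup.mem_centralizer_iff.2 fun h hh => (hc h hh).symm⟩ }
  exact false_of_noncomm two hs hsodd htrans hdata hUn hZfpf hx hy hxy

end Cfsg.Agent.Lib.TransLin.Omega
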