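import Cfsg.Agent.Lib.TransLin.Basic

/-!
# Fixed spaces of non-central elements of an extraspecial-like action

If `x y x⁻¹ = c y` with `c` central of order `s` acting freely on `E₁`, and `y ^ s = 1`, then the
`s` subspaces `x ^ i • C_{E₁}(y)` are independent (for `2 E = 0`, `s` odd), so
`|C_{E₁}(y)| ^ s ≤ |E₁|`, and `C_{E₁}(y) ≠ 0`.
-/

set_option autoImplicit false
set_option linter.style.haveILetI false
set_option linter.unusedSectionVars false

namespace Cfsg.Agent.Lib.TransLin.Proj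

open Cfsg.Agent.Lib.TransLin.Basic

variable {D E : Type*} [Group D] [AddCommGroup E] [DistribMulAction D E]

/-- The norm `∑_{k < n} g ^ k • e`. -/
def normSum (g : D) (n : ℕ) (e : E) : E := ∑ k ∈ Finset.range n, g ^ k • e

theorem normSum_sum {ι : Type*} (g : D) (n : ℕ) (T : Finset ι) (f : ι → E) :
    normSum g n (∑ i ∈ T, f i) = ∑ i ∈ T, normSum g n (f i) := by
  unfold normSum
  rw [Finset.sum_comm]
  refine Finset.sum_congr rfl fun k _ => ?_
  rw [Finset.smul_sum]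

theorem pow_smul_congr {g t : D} {e : E} (h : g • e = t • e) (hc : Commute g t) (k : ℕ) :
    g ^ k • e = t ^ k • e := by
  induction k with
  | zero => simp
  | succ k ih =>
    calc g ^ (k + 1) • e = g ^ k • (g • e) := by rw [pow_succ, mul_smul]
      _ = g ^ k • (t • e) := by rw [h]
      _ = (g ^ k * t) • e := by rw [mul_smul]
      _ = (t * g ^ k) • e := by rw [(hc.pow_left k).eq]
      _ = t • (g ^ k • e) := by rw [mul_smul]
      _ = t ^ (k + 1) • e := by rw [ih, pow_succ', mul_smul]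

theorem normSum_congr {g t : D} {e : E} (h : g • e = t • e) (hc : Commute g t) (n : ℕ) :
    normSum g n e = normSum t n e :=
  Finset.sum_congr rfl fun k _ => pow_smul_congr h hc k

theorem smul_normSum {g : D} {n : ℕ} (hn : g ^ n = 1) (e : E) :
    g • normSum g n e = normSum g n e := by
  unfold normSum
  rw [Finset.smul_sum]
  have h1 := Finset.sum_range_succ' (fun k => g ^ k • e) n
  have h2 := Finset.sum_range_succ (fun k => g ^ k • e) n
  simp only [pow_zero, one_smul, hn] at h1 h2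
  have h3 := h1.symm.trans h2
  have h4 := add_right_cancel h3
  rw [← h4]
  refine Finset.sum_congr rfl fun k _ => ?_
  rw [← mul_smul, pow_succ']

theorem normSum_one (n : ℕ) (e : E) : normSum (1 : D) n e = n • e := by
  simp [normSum]

theorem pow_smul_mem {g : D} {E₁ : AddSubgroup E} (hg : ∀ e ∈ E₁, g • e ∈ E₁) {e : E}
    (he : e ∈ E₁) (k : ℕ) : g ^ k • e ∈ E₁ := by
  induction k with
  | zero => simpa using he
  | succ k ih =>
    rw [pow_succ', mul_smul]
    exact hg _ ih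

theorem normSum_mem {g : D} {E₁ : AddSubgroup E} (hg : ∀ e ∈ E₁, g • e ∈ E₁) {e : E}
    (he : e ∈ E₁) (n : ℕ) : normSum g n e ∈ E₁ :=
  E₁.sum_mem fun k _ => pow_smul_mem hg he k

theorem odd_nsmul_eq {s : ℕ} (hs : Odd s) {e : E} (h : e + e = 0) : s • e = e := by
  obtain ⟨m, rfl⟩ := hs
  rw [add_smul, one_smul, mul_comm, mul_nsmul', two_nsmul, h, smul_zero, zero_add]

/-- The configuration of the projection argument. -/
structure Cfg (s : ℕ) (x y c : D) (E₁ : AddSubgroup E) : Prop where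
  two : ∀ e : E, e + e = 0
  sprime : s.Prime
  sodd : Odd s
  c1 : c ≠ 1
  cs : c ^ s = 1
  ys : y ^ s = 1
  cx : Commute c x
  cy : Commute c y
  xy : x * y * x⁻¹ = c * y
  xE : ∀ e ∈ E₁, x • e ∈ E₁
  xE' : ∀ e ∈ E₁, x⁻¹ • e ∈ E₁
  yE : ∀ e ∈ E₁, y • e ∈ E₁
  cE : ∀ t ∈ Subgroup.zpowers c, ∀ e ∈ E₁, t • e ∈ E₁
  fpf : ∀ t ∈ Subgroup.zpowers c, t ≠ 1 → ∀ e ∈ E₁, t • e = e → e = 0

namespace Cfg

variable {s : ℕ} {x y c : D} {E₁ : AddSubgroup E}

theorem conj_pow (h : Cfg s x y c E₁) (i : ℕ) : x ^ i * y * (x ^ i)⁻¹ = c ^ i * y := by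
  induction i with
  | zero => simp
  | succ i ih =>
    calc x ^ (i + 1) * y * (x ^ (i + 1))⁻¹ = x * (x ^ i * y * (x ^ i)⁻¹) * x⁻¹ := by
          rw [pow_succ']; group
      _ = x * (c ^ i * y) * x⁻¹ := by rw [ih]
      _ = c ^ i * (x * y * x⁻¹) := by
          rw [← mul_assoc x, ((h.cx.pow_left i).eq).symm]; group
      _ = c ^ i * (c * y) := by rw [h.xy]
      _ = c ^ (i + 1) * y := by rw [pow_succ, mul_assoc]

theorem pow_mem_zpowers (i : ℕ) : c ^ i ∈ Subgroup.zpowers c :=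
  Subgroup.pow_mem _ (Subgroup.mem_zpowers c) i

theorem pow_s_of_mem (h : Cfg s x y c E₁) {t : D} (ht : t ∈ Subgroup.zpowers c) : t ^ s = 1 := by
  obtain ⟨m, rfl⟩ := Subgroup.mem_zpowers_iff.1 ht
  rw [← zpow_natCast, zpow_comm, zpow_natCast, h.cs, one_zpow]

theorem comm_of_mem (h : Cfg s x y c E₁) {t : D} (ht : t ∈ Subgroup.zpowers c) : Commute t y := by
  obtain ⟨m, rfl⟩ := Subgroup.mem_zpowers_iff.1 ht
  exact h.cy.zpow_left m

/-- The element `g j = c ^ j * y`. -/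
theorem g_pow (h : Cfg s x y c E₁) (j : ℕ) : (c ^ j * y) ^ s = 1 := by
  rw [(h.cy.pow_left j).mul_pow, h.pow_s_of_mem (pow_mem_zpowers j), h.ys, mul_one]

theorem orderOf_c (h : Cfg s x y c E₁) : orderOf c = s :=
  haveI : Fact s.Prime := ⟨h.sprime⟩
  orderOf_eq_prime h.cs h.c1

/-- The norm of a free element vanishes. -/
theorem normSum_eq_zero (h : Cfg s x y c E₁) {t : D} (ht : t ∈ Subgroup.zpowers c) (ht1 : t ≠ 1)
    {e : E} (he : e ∈ E₁) : normSum t s e = 0 :=
  h.fpf t ht ht1 _ (normSum_mem (h.cE t ht) he s) (smul_normSum (h.pow_s_of_mem ht) e)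

theorem g_mem (h : Cfg s x y c E₁) (j : ℕ) {e : E} (he : e ∈ E₁) : (c ^ j * y) • e ∈ E₁ := by
  rw [mul_smul]
  exact h.cE _ (pow_mem_zpowers j) _ (h.yE e he)

/-- Evaluate the projection on an eigenvector. -/
theorem pi_eq (h : Cfg s x y c E₁) {i j : ℕ} (hi : i < s) (hj : j < s) {e : E} (he : e ∈ E₁)
    (hfix : (c ^ i * y) • e = e) :
    normSum (c ^ j * y) s e = if i = j then e else 0 := by
  have ht : c ^ j * (c ^ i)⁻¹ ∈ Subgroup.zpowers c :=
    Subgroup.mul_mem _ (pow_mem_zpowers j) (Subgroup.inv_mem _ (pow_mem_zpowers i))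
  have h1 : (c ^ j * y) • e = (c ^ j * (c ^ i)⁻¹) • e := by
    conv_rhs => rw [← hfix]
    rw [← mul_smul]
    congr 1
    group
  have h2 : Commute (c ^ j * y) (c ^ j * (c ^ i)⁻¹) := by
    have ht_c : Commute (c ^ j * (c ^ i)⁻¹) (c ^ j) :=
      ((Commute.refl c).pow_pow j j).mul_left ((Commute.refl c).pow_pow i j).inv_left
    exact (ht_c.mul_right (h.comm_of_mem ht)).symm
  rw [normSum_congr h1 h2]
  split_ifs with hij
  · subst hij
    rw [mul_inv_cancel, normSum_one, odd_nsmul_eq h.sodd (h.two e)]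
  · refine h.normSum_eq_zero ht ?_ he
    intro ht1
    apply hij
    have h3 : c ^ j = c ^ i := by
      rwa [mul_inv_eq_one] at ht1
    have := pow_injOn_Iio_orderOf (x := c) (x₁ := j) (x₂ := i)
      (by simpa [h.orderOf_c] using hj) (by simpa [h.orderOf_c] using hi) h3
    exact this.symm

/-- The projections sum to the identity. -/
theorem sum_pi (h : Cfg s x y c E₁) {e : E} (he : e ∈ E₁) :
    ∑ j ∈ Finset.range s, normSum (c ^ j * y) s e = e := by
  have h1 : ∀ j k : ℕ, (c ^ j * y) ^ k • e = (c ^ k) ^ j • (y ^ k • e) := by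
    intro j k
    rw [(h.cy.pow_left j).mul_pow, mul_smul, ← pow_mul, ← pow_mul, mul_comm]
  unfold normSum
  rw [Finset.sum_comm]
  simp only [h1]
  have h2 : ∀ k ∈ Finset.range s, k ≠ 0 →
      ∑ j ∈ Finset.range s, (c ^ k) ^ j • (y ^ k • e) = 0 := by
    intro k hk hk0
    have hk' : k < s := Finset.mem_range.1 hk
    refine h.normSum_eq_zero (pow_mem_zpowers k) ?_ (pow_smul_mem h.yE he k)
    intro h1
    have := orderOf_dvd_of_pow_eq_one h1
    rw [h.orderOf_c] at this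
    exact absurd (Nat.le_of_dvd (Nat.pos_of_ne_zero hk0) this) (by omega)
  rw [Finset.sum_eq_single 0 h2 (fun h0 => absurd (Finset.mem_range.2 h.sprime.pos) h0)]
  simp only [pow_zero, one_pow, one_smul]
  rw [Finset.sum_const, Finset.card_range, odd_nsmul_eq h.sodd (h.two e)]

theorem inv_pow_mem (h : Cfg s x y c E₁) {e : E} (he : e ∈ E₁) (k : ℕ) : (x ^ k)⁻¹ • e ∈ E₁ := by
  rw [← inv_pow]
  exact pow_smul_mem h.xE' he k

/-- `C_{E₁}(y) ≠ 0`. -/
theorem fix_ne_bot (h : Cfg s x y c E₁) (hE : E₁ ≠ ⊥) : E₁ ⊓ fixA (E := E) {y} ≠ ⊥ := by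
  intro hbot
  obtain ⟨e, heE, he0⟩ := exists_mem_ne_zero_of_ne_bot hE
  apply he0
  rw [← h.sum_pi heE]
  refine Finset.sum_eq_zero fun j _ => ?_
  set N := normSum (c ^ j * y) s e with hN
  have hNE : N ∈ E₁ := normSum_mem (fun e he => h.g_mem j he) heE s
  have hNfix : (c ^ j * y) • N = N := smul_normSum (h.g_pow j) e
  have hd : (x ^ j)⁻¹ • N ∈ E₁ ⊓ fixA (E := E) {y} := by
    refine ⟨h.inv_pow_mem hNE j, ?_⟩
    intro t ht
    rw [Set.mem_singleton_iff.1 ht]
    calc y • (x ^ j)⁻¹ • N = (x ^ j)⁻¹ • ((x ^ j * y * (x ^ j)⁻¹) • N) := by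
          simp [mul_smul]
      _ = (x ^ j)⁻¹ • N := by rw [h.conj_pow, hNfix]
  rw [hbot, AddSubgroup.mem_bot] at hd
  exact (smul_eq_zero_iff_eq _).1 hd

theorem pow_smul_fix (h : Cfg s x y c E₁) (i : ℕ) {d : E} (hd : y • d = d) :
    (c ^ i * y) • (x ^ i • d) = x ^ i • d := by
  rw [← h.conj_pow]
  simp [mul_smul, hd]

/-- `|C_{E₁}(y)| ^ s ≤ |E₁|`. -/
theorem card_pow_le [Finite E] (h : Cfg s x y c E₁) :
    Nat.card ↥(E₁ ⊓ fixA (E := E) {y}) ^ s ≤ Nat.card E₁ := by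
  classical
  set C := E₁ ⊓ fixA (E := E) {y} with hC
  have hfixC : ∀ f : C, y • (f : E) = f := fun f => f.2.2 y rfl
  let Φ : (Fin s → C) → E₁ := fun f =>
    ⟨∑ i : Fin s, x ^ (i : ℕ) • (f i : E),
      E₁.sum_mem fun i _ => pow_smul_mem h.xE (f i).2.1 _⟩
  have hinj : Function.Injective Φ := by
    intro f f' hff
    have hff' : ∑ i : Fin s, x ^ (i : ℕ) • (f i : E) = ∑ i : Fin s, x ^ (i : ℕ) • (f' i : E) :=
      congrArg Subtype.val hff
    funext j
    have key : ∀ f : Fin s → C,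
        normSum (c ^ (j : ℕ) * y) s (∑ i : Fin s, x ^ (i : ℕ) • (f i : E)) =
          x ^ (j : ℕ) • (f j : E) := by
      intro f
      rw [normSum_sum, Finset.sum_eq_single j]
      · rw [h.pi_eq j.2 j.2 (pow_smul_mem h.xE (f j).2.1 _) (h.pow_smul_fix _ (hfixC _)), if_pos rfl]
      · intro i _ hij
        rw [h.pi_eq i.2 j.2 (pow_smul_mem h.xE (f i).2.1 _) (h.pow_smul_fix _ (hfixC _)),
          if_neg (fun h' => hij (Fin.ext h'))]
      · simp
    have h3 := congrArg (normSum (c ^ (j : ℕ) * y) s) hff'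
    rw [key f, key f'] at h3
    exact Subtype.ext (smul_left_cancel _ h3)
  have := Nat.card_le_card_of_injective Φ hinj
  rwa [Nat.card_fun, Nat.card_fin] at this

end Cfg

end Cfsg.Agent.Lib.TransLin.Proj
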